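import Mathlib
import Cfsg.Agent.Lib.Helper51.TIH.Defs
import Cfsg.Agent.S0023

/-!
# Project TIH (S4118): package [AUT]
-/

set_option autoImplicit false

namespace Cfsg.Agent.Lib.Helper38.TIH

open Cfsg.Agent.Lib.Helper51.TIH

universe u

theorem pkgAut (hP : PkgAutP.{u}) : PkgAut.{u} := by
  intro G _ _ H A hAN hcop hsolv hcq
  classical
  rw [Subgroup.le_centralizer_iff, ← Subgroup.subgroupOf_eq_top]
  have hkey : ∀ p : ℕ, p.Prime → p ^ (Nat.card H).factorization p ∣
      Nat.card ((Subgroup.centralizer ((⁅A, A⁆ : Subgroup G) : Set G)).subgroupOf H) := by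
    intro p hp
    have hfp : Fact p.Prime := ⟨hp⟩
    obtain ⟨P, hPn⟩ := Cfsg.Agent.S0023.result A H hAN hcop (Or.inr hsolv) p
    have hle : (P : Subgroup H) ≤
        (Subgroup.centralizer ((⁅A, A⁆ : Subgroup G) : Set G)).subgroupOf H := by
      by_cases hpA : p ∣ Nat.card A
      · have hpH : ¬ p ∣ Nat.card H := by
          intro h
          have := Nat.eq_one_of_dvd_coprimes hcop hpA h
          exact hp.one_lt.ne' this
        have hcard : Nat.card P = 1 := by
          rw [P.card_eq_multiplicity, Nat.factorization_eq_zero_of_not_dvd hpH, pow_zero]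
        have hbot : (P : Subgroup H) = ⊥ := Subgroup.card_eq_one.1 hcard
        rw [hbot]
        exact bot_le
      · have hTcq : IsCyclic ↥((P : Subgroup H).map H.subtype) ∨ ∃ n : ℕ,
            Nonempty (↥((P : Subgroup H).map H.subtype) ≃* QuaternionGroup (2 ^ n)) := by
          rcases hcq p P with hc | ⟨n, ⟨g⟩⟩
          · left
            exact isCyclic_of_surjective
              ((P : Subgroup H).equivMapOfInjective H.subtype H.subtype_injective)
              ((P : Subgroup H).equivMapOfInjective H.subtype H.subtype_injective).surjective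
          · right
            exact ⟨n, ⟨((P : Subgroup H).equivMapOfInjective H.subtype
              H.subtype_injective).symm.trans g⟩⟩
        have hT := hP G ((P : Subgroup H).map H.subtype) A p hPn (P.isPGroup'.map H.subtype)
          hpA hTcq
        intro x hx
        rw [Subgroup.mem_subgroupOf]
        have hx' : (x : G) ∈ (P : Subgroup H).map H.subtype := ⟨x, hx, rfl⟩
        exact (Subgroup.le_centralizer_iff.1 hT) hx'
    rw [← P.card_eq_multiplicity]
    exact Subgroup.card_dvd_of_le hle
  have hH0 : Nat.card H ≠ 0 := Nat.card_pos.ne'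
  have hD0 : Nat.card ((Subgroup.centralizer ((⁅A, A⁆ : Subgroup G) : Set G)).subgroupOf H) ≠ 0 :=
    Nat.card_pos.ne'
  have hdvd : Nat.card H ∣
      Nat.card ((Subgroup.centralizer ((⁅A, A⁆ : Subgroup G) : Set G)).subgroupOf H) := by
    rw [← Nat.factorization_le_iff_dvd hH0 hD0]
    intro p
    by_cases hp : p.Prime
    · exact (hp.pow_dvd_iff_le_factorization hD0).1 (hkey p hp)
    · rw [Nat.factorization_eq_zero_of_not_prime _ hp]
      exact Nat.zero_le _
  exact (Subgroup.card_eq_iff_eq_top _).1 (Nat.dvd_antisymm (Subgroup.card_subgroup_dvd_card _) hdvd)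

end Cfsg.Agent.Lib.Helper38.TIH
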