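import Mathlib
import Cfsg.Agent.Lib.Helper51.TIH.Defs
import Cfsg.Agent.S0040

/-!
# Project TIH (S4118): package [SYL]
-/

set_option autoImplicit false

namespace Cfsg.Agent.Lib.Helper38.TIH

open Cfsg.Agent.Lib.Helper51.TIH

universe u

/-- transport of the Sylow condition along an isomorphism -/
theorem sylCQ_of_equiv {H H₂ : Type u} [Group H] [Group H₂] (e : H ≃* H₂)
    (h : ∀ (p : ℕ) [Fact p.Prime] (P : Sylow p H₂),
      IsCyclic P ∨ ∃ n : ℕ, Nonempty (P ≃* QuaternionGroup (2 ^ n))) : SylCQ H := by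
  intro p _ P
  let P' : Sylow p H₂ := P.comapOfInjective e.symm.toMonoidHom e.symm.injective (by
    rw [MonoidHom.range_eq_top.2 e.symm.surjective]
    exact le_top)
  let f : ↥(P' : Subgroup H₂) ≃* ↥(P : Subgroup H) :=
    { toFun := fun x => ⟨e.symm x.1, x.2⟩
      invFun := fun y => ⟨e y.1, by
        show e.symm (e y.1) ∈ (P : Subgroup H)
        rw [e.symm_apply_apply]
        exact y.2⟩
      left_inv := fun x => Subtype.ext (e.apply_symm_apply x.1)
      right_inv := fun y => Subtype.ext (e.symm_apply_apply y.1)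
      map_mul' := fun x y => Subtype.ext (map_mul e.symm x.1 y.1) }
  rcases h p P' with hc | ⟨n, ⟨g⟩⟩
  · left
    exact isCyclic_of_surjective f f.surjective
  · right
    exact ⟨n, ⟨f.symm.trans g⟩⟩

theorem pkgSyl : PkgSyl.{u} := by
  intro H _ _ hfpf
  obtain ⟨K, hK, hKfin, ρ, hnt, hρ⟩ := hfpf
  classical
  have hfinΓ : Finite (K ⋊[ρ] H) :=
    Finite.of_equiv _ (SemidirectProduct.equivProd (φ := ρ)).symm
  have hnorm : ((SemidirectProduct.inl : K →* K ⋊[ρ] H).range).Normal := by
    rw [SemidirectProduct.range_inl_eq_ker_rightHom]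
    infer_instance
  have hcompl : Subgroup.IsComplement' (SemidirectProduct.inl : K →* K ⋊[ρ] H).range
      (SemidirectProduct.inr : H →* K ⋊[ρ] H).range := by
    apply Subgroup.isComplement'_of_disjoint_and_mul_eq_univ
    · rw [Subgroup.disjoint_def]
      rintro x ⟨k, rfl⟩ ⟨h, hh⟩
      have h1 := congrArg (SemidirectProduct.rightHom (φ := ρ)) hh
      rw [SemidirectProduct.rightHom_inr, SemidirectProduct.rightHom_inl] at h1
      rw [← hh, h1, map_one]
    · rw [Set.eq_univ_iff_forall]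
      intro x
      exact ⟨SemidirectProduct.inl x.left, ⟨x.left, rfl⟩, SemidirectProduct.inr x.right,
        ⟨x.right, rfl⟩, SemidirectProduct.inl_left_mul_inr_right x⟩
  have hKne : (SemidirectProduct.inl : K →* K ⋊[ρ] H).range ≠ ⊥ := by
    intro hbot
    obtain ⟨k, hk⟩ := exists_ne (1 : K)
    apply hk
    have h1 : (SemidirectProduct.inl k : K ⋊[ρ] H) ∈
        (SemidirectProduct.inl : K →* K ⋊[ρ] H).range := ⟨k, rfl⟩
    rw [hbot, Subgroup.mem_bot] at h1
    apply SemidirectProduct.inl_injective (φ := ρ)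
    rw [h1, map_one]
  have hfpf : ∀ h ∈ (SemidirectProduct.inr : H →* K ⋊[ρ] H).range, h ≠ 1 →
      (SemidirectProduct.inl : K →* K ⋊[ρ] H).range ⊓ Subgroup.centralizer {h} = ⊥ := by
    rintro _ ⟨h, rfl⟩ hne
    have hh1 : h ≠ 1 := by
      intro h1
      apply hne
      rw [h1, map_one]
    rw [eq_bot_iff]
    rintro x ⟨⟨k, rfl⟩, hx⟩
    have hx' : (SemidirectProduct.inl k : K ⋊[ρ] H) ∈
        Subgroup.centralizer {(SemidirectProduct.inr h : K ⋊[ρ] H)} := hx
    rw [Subgroup.mem_centralizer_iff] at hx'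
    have h2 := hx' _ rfl
    have h3 : (SemidirectProduct.inl (ρ h k) : K ⋊[ρ] H) = SemidirectProduct.inl k := by
      rw [SemidirectProduct.inl_aut, h2, mul_assoc, ← map_mul, mul_inv_cancel, map_one, mul_one]
    have h4 : ρ h k = k := SemidirectProduct.inl_injective h3
    rw [Subgroup.mem_bot, hρ h hh1 k h4, map_one]
  exact sylCQ_of_equiv (MonoidHom.ofInjective (SemidirectProduct.inr_injective (φ := ρ)))
    (fun p _ P => Cfsg.Agent.S0040.result _ _ hcompl hKne hfpf p P)

end Cfsg.Agent.Lib.Helper38.TIH
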